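import Cfsg.Agent.Lib.Leech.Cross

/-!
# Even lattices given by a Gram matrix: the form and short classes modulo 2
-/

set_option autoImplicit false

namespace Cfsg.Lib.Leech

open Finset Matrix

/-- The bilinear form of a Gram matrix. -/
def gramHom (B : Matrix (Fin 24) (Fin 24) ℤ) : (Fin 24 → ℤ) →+ (Fin 24 → ℤ) →+ ℤ :=
  AddMonoidHom.mk' (fun x => AddMonoidHom.mk' (fun y => x ⬝ᵥ (B *ᵥ y))
    fun y z => by rw [mulVec_add, dotProduct_add]) fun x y => by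
      refine AddMonoidHom.ext fun z => ?_
      simp only [AddMonoidHom.mk'_apply, AddMonoidHom.add_apply, add_dotProduct]

theorem gramHom_apply (B : Matrix (Fin 24) (Fin 24) ℤ) (x y : Fin 24 → ℤ) :
    gramHom B x y = x ⬝ᵥ (B *ᵥ y) := rfl

theorem gramHom_symm {B : Matrix (Fin 24) (Fin 24) ℤ} (hsymm : B.IsSymm) (x y : Fin 24 → ℤ) :
    gramHom B x y = gramHom B y x := by
  rw [gramHom_apply, gramHom_apply, dotProduct_mulVec, ← mulVec_transpose, hsymm.eq, dotProduct_comm]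

theorem gramHom_min {B : Matrix (Fin 24) (Fin 24) ℤ} (hpos : ∀ x : Fin 24 → ℤ, x ≠ 0 → 0 < x ⬝ᵥ (B *ᵥ x))
    (heven : ∀ x : Fin 24 → ℤ, (2 : ℤ) ∣ x ⬝ᵥ (B *ᵥ x)) (h2 : ∀ x : Fin 24 → ℤ, x ⬝ᵥ (B *ᵥ x) ≠ 2)
    (x : Fin 24 → ℤ) (hx : x ≠ 0) : 4 * 1 ≤ gramHom B x x := by
  have := hpos x hx
  have := heven x
  have := h2 x
  rw [gramHom_apply]
  omega

theorem exists_add_self {x y : Fin 24 → ℤ} (hc : ∀ i, (2 : ℤ) ∣ (x - y) i) : ∃ z, x - y = z + z :=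
  ⟨fun i => (x - y) i / 2, funext fun i => by have := hc i; simp only [Pi.add_apply]; omega⟩

/-- Reduction modulo 2. -/
def red2 (x : Fin 24 → ℤ) : Fin 24 → ZMod 2 := fun i => (x i : ZMod 2)

theorem red2_eq_iff {x y : Fin 24 → ℤ} : red2 x = red2 y ↔ ∀ i, (2 : ℤ) ∣ (x - y) i := by
  rw [funext_iff]
  refine forall_congr' fun i => ?_
  rw [red2, red2, eq_comm, ZMod.intCast_eq_intCast_iff_dvd_sub]
  rfl

theorem gram_classes {B : Matrix (Fin 24) (Fin 24) ℤ} (hsymm : B.IsSymm)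
    (hpos : ∀ x : Fin 24 → ℤ, x ≠ 0 → 0 < x ⬝ᵥ (B *ᵥ x))
    (heven : ∀ x : Fin 24 → ℤ, (2 : ℤ) ∣ x ⬝ᵥ (B *ᵥ x)) (h2 : ∀ x : Fin 24 → ℤ, x ⬝ᵥ (B *ᵥ x) ≠ 2)
    (h4 : {x : Fin 24 → ℤ | x ⬝ᵥ (B *ᵥ x) = 4}.ncard = 196560)
    (h6 : {x : Fin 24 → ℤ | x ⬝ᵥ (B *ᵥ x) = 6}.ncard = 16773120)
    (h8 : {x : Fin 24 → ℤ | x ⬝ᵥ (B *ᵥ x) = 8}.ncard = 398034000) (x : Fin 24 → ℤ)
    (hx : x ⬝ᵥ (B *ᵥ x) = 8) :
    {y : Fin 24 → ℤ | y ⬝ᵥ (B *ᵥ y) = 8 ∧ ∀ i, (2 : ℤ) ∣ (x - y) i}.ncard = 48 := by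
  have := (short_classes (β := gramHom B) (s := 1) (by simp) one_pos (gramHom_symm hsymm)
    (gramHom_min hpos heven h2) (U := univ) (by simp) (φ := red2) (fun _ => mem_univ _)
    (fun x y h => exists_add_self (red2_eq_iff.1 h)) h4 h6 h8).1 x hx
  rw [← this]
  congr 1
  ext y
  simp only [Set.mem_setOf_eq, gramHom_apply, mul_one]
  rw [eq_comm (a := red2 y), red2_eq_iff]

end Cfsg.Lib.Leech
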